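import Cfsg.Agent.Lib.TC.Data.Suz22880.Arr

set_option autoImplicit false

namespace Cfsg.Agent.Lib.TC.Data.Suz22880

open Cfsg.Agent.Lib.TC.Fast

theorem P0_ok : allF Fp (nat_lit 0) (nat_lit 1760) = true := by decide +kernel

end Cfsg.Agent.Lib.TC.Data.Suz22880
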