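import Cfsg.Agent.Lib.TC.G.Suz
import Cfsg.Agent.Lib.TC.Fast.Bridge
import Cfsg.Agent.Lib.TC.Data.Suz22880.Arr
import Cfsg.Agent.Lib.TC.Data.Suz22880.K0
import Cfsg.Agent.Lib.TC.Data.Suz22880.K1
import Cfsg.Agent.Lib.TC.Data.Suz22880.K2
import Cfsg.Agent.Lib.TC.Data.Suz22880.K3
import Cfsg.Agent.Lib.TC.Data.Suz22880.K4
import Cfsg.Agent.Lib.TC.Data.Suz22880.K5
import Cfsg.Agent.Lib.TC.Data.Suz22880.P0
import Cfsg.Agent.Lib.TC.Data.Suz22880.P1
import Cfsg.Agent.Lib.TC.Data.Suz22880.P2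
import Cfsg.Agent.Lib.TC.Data.Suz22880.P3
import Cfsg.Agent.Lib.TC.Data.Suz22880.P4
import Cfsg.Agent.Lib.TC.Data.Suz22880.P5
import Cfsg.Agent.Lib.TC.Data.Suz22880.P6
import Cfsg.Agent.Lib.TC.Data.Suz22880.P7
import Cfsg.Agent.Lib.TC.Data.Suz22880.P8
import Cfsg.Agent.Lib.TC.Data.Suz22880.P9
import Cfsg.Agent.Lib.TC.Data.Suz22880.P10
import Cfsg.Agent.Lib.TC.Data.Suz22880.P11
import Cfsg.Agent.Lib.TC.Data.Suz22880.P12

set_option autoImplicit false

namespace Cfsg.Agent.Lib.TC.Data.Suz22880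

open Cfsg.Agent.Lib.TC Cfsg.Agent.Lib.TC.Fast

open Cfsg.Spor Cfsg.Spor.Suz

theorem doneK : Done Fk 28480 := by
  have h0 := Done.zero Fk
  have h1 : Done Fk 7536 := done_step h0 K0_ok rfl
  have h2 : Done Fk 13686 := done_step h1 K1_ok rfl
  have h3 : Done Fk 18702 := done_step h2 K2_ok rfl
  have h4 : Done Fk 23395 := done_step h3 K3_ok rfl
  have h5 : Done Fk 27737 := done_step h4 K4_ok rfl
  have h6 : Done Fk 28480 := done_step h5 K5_ok rfl
  exact h6

theorem doneP : Done Fp 22880 := by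
  have h0 := Done.zero Fp
  have h1 : Done Fp 1760 := done_step h0 P0_ok rfl
  have h2 : Done Fp 3520 := done_step h1 P1_ok rfl
  have h3 : Done Fp 5280 := done_step h2 P2_ok rfl
  have h4 : Done Fp 7040 := done_step h3 P3_ok rfl
  have h5 : Done Fp 8800 := done_step h4 P4_ok rfl
  have h6 : Done Fp 10560 := done_step h5 P5_ok rfl
  have h7 : Done Fp 12320 := done_step h6 P6_ok rfl
  have h8 : Done Fp 14080 := done_step h7 P7_ok rfl
  have h9 : Done Fp 15840 := done_step h8 P8_ok rfl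
  have h10 : Done Fp 17600 := done_step h9 P9_ok rfl
  have h11 : Done Fp 19360 := done_step h10 P10_ok rfl
  have h12 : Done Fp 21120 := done_step h11 P11_ok rfl
  have h13 : Done Fp 22880 := done_step h12 P12_ok rfl
  exact h13

noncomputable def cert : Cert := mkCert 8 7 15 32767 E2 (wordA words) 33 39 (28480 * 8) R2 pk2 102 7 127 6 63

def subsL : List (FreeGroup Gen) := [a, b, c, d, f, g]

theorem hsubs (s : FreeGroup Gen) : s ∈ ({a, b, c, d, f, g} : Set (FreeGroup Gen)) ↔ s ∈ subsL := by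
  simp [subsL]

theorem hsubW : subW = subsL.map (encW G.Suz.sys.code G.Suz.sys.inv) := by decide +kernel

noncomputable def A : SubWords G.Suz.sys ({a, b, c, d, f, g} : Set (FreeGroup Gen)) :=
  G.Suz.sys.subWordsOfList subsL subW hsubW hsubs

def rX : List (List ℕ) := rM.map (expW macs 7)

theorem hLL : ∀ w ∈ G.Suz.relWords, w ∈ rX ∨ rotR w ∈ rX ∨ isPseudo 7 G.Suz.inv w = true := by decide +kernel

theorem hrelW : ∀ w ∈ words.take 33, isPseudo 7 G.Suz.inv w = true ∨ w ∈ G.Suz.relWords := by decide +kernel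

theorem hsubD : ∀ w ∈ words.drop 33, w ∈ subW := by decide +kernel

theorem hlett : ∀ w ∈ words, ∀ g ∈ w, g < 8 := by decide +kernel

theorem hwlS : ∀ j, j < 6 → wordAt wordsL j ∈ subW := by decide +kernel

theorem hwlL : ∀ j, j < 13 → ∀ g ∈ wordAt wordsL j, g < 7 := by decide +kernel

theorem hzero : relsOk tT subW 0 = true := by decide +kernel

theorem hnm0 : nm 0 = 0 := by decide +kernel

theorem hinvL : ∀ g, g < 7 → numA invL g = G.Suz.inv g := by decide +kernel

theorem hmacL : ∀ mb ∈ macs, ∀ g ∈ mb.2, g < 7 := by decide +kernel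

theorem hrM : ∀ w ∈ rM, ∀ g ∈ w, g < 7 ∨ (macs.lookup g).isSome = true := by decide +kernel

theorem hE0 : ∀ x h, 28480 ≤ x → E2 x h = 0 := fun x _ hx => field_zero _ _ _ (guard_zero_F 28480 x _ hx)

noncomputable def checked : Sys.Checked G.Suz.sys ({a, b, c, d, f, g} : Set (FreeGroup Gen)) cert where
  n := 22880
  T := tT
  R := rX
  words := words
  nm := nm
  A := A
  WL := wordA wordsL
  nsub := 6
  nW := 13
  par := par
  gw := gw
  ivs := ivs
  hF := ptAll_of (by decide) (by decide) hinvL hmacL hrM doneP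
  hn := by decide
  hL := fun r hr => hLL _ (G.Suz.mem_relWords hr)
  hW := rfl
  hep := rfl
  hsz := rfl
  hnW := by decide +kernel
  hnrel := by decide +kernel
  hletters := hlett
  hrel := fun w hw => (hrelW w hw).imp id G.Suz.of_mem_relWords
  hsub := hsubD
  hE := hE_of (by decide) hE0
  hcheck := hcheck_of (by decide) (wordA_letters hlett) doneK
  hnm0 := hnm0
  hWLs := hwlS
  hWLl := hwlL
  h0 := hzero

end Cfsg.Agent.Lib.TC.Data.Suz22880
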